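/-
Perfect cores and `𝒞`-components of finite groups.
-/
import Mathlib
import Cfsg.Prelude.Def_Quasithin
import Cfsg.Agent.SIG.FStar
import Cfsg.Agent.FGS.SolvRad
import Cfsg.Agent.TECH.SylIn

set_option autoImplicit false

namespace CL.QT

open Cfsg Subgroup CL.Comp CL.SR
open scoped commutatorElement

variable {G G' : Type*} [Group G] [Group G']

/-- the largest perfect subgroup of `A` -/
def pc (A : Subgroup G) : Subgroup G := sSup {L | L ≤ A ∧ ⁅L, L⁆ = L}

theorem pc_le (A : Subgroup G) : pc A ≤ A := sSup_le fun _ h => h.1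

theorem le_pc {A L : Subgroup G} (h : L ≤ A) (hL : ⁅L, L⁆ = L) : L ≤ pc A := le_sSup ⟨h, hL⟩

theorem comm_self_le (A : Subgroup G) : ⁅A, A⁆ ≤ A :=
  commutator_le.2 fun _ ha _ hb => by
    rw [commutatorElement_def]
    exact mul_mem (mul_mem (mul_mem ha hb) (inv_mem ha)) (inv_mem hb)

theorem sSup_perfect {S : Set (Subgroup G)} (h : ∀ L ∈ S, ⁅L, L⁆ = L) : ⁅sSup S, sSup S⁆ = sSup S :=
  le_antisymm (comm_self_le _) (sSup_le fun L hL =>
    (h L hL).ge.trans (commutator_mono (le_sSup hL) (le_sSup hL)))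

theorem sup_perfect {A B : Subgroup G} (hA : ⁅A, A⁆ = A) (hB : ⁅B, B⁆ = B) :
    ⁅A ⊔ B, A ⊔ B⁆ = A ⊔ B :=
  le_antisymm (comm_self_le _) (sup_le (hA.ge.trans (commutator_mono le_sup_left le_sup_left))
    (hB.ge.trans (commutator_mono le_sup_right le_sup_right)))

theorem pc_perfect (A : Subgroup G) : ⁅pc A, pc A⁆ = pc A := sSup_perfect fun _ h => h.2

theorem pc_mono {A B : Subgroup G} (h : A ≤ B) : pc A ≤ pc B :=
  le_pc ((pc_le A).trans h) (pc_perfect A)

theorem perfectCore_eq : perfectCore G = pc ⊤ := by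
  simp [perfectCore, pc]

theorem map_perfect {L : Subgroup G} (hL : ⁅L, L⁆ = L) (f : G →* G') :
    ⁅L.map f, L.map f⁆ = L.map f := by
  rw [← Subgroup.map_commutator, hL]

theorem subgroupOf_perfect {L M : Subgroup G} (hL : ⁅L, L⁆ = L) (h : L ≤ M) :
    ⁅L.subgroupOf M, L.subgroupOf M⁆ = L.subgroupOf M := by
  apply Subgroup.map_injective M.subtype_injective
  rw [Subgroup.map_commutator, subgroupOf_map_subtype, inf_eq_left.2 h, hL]

theorem map_pc_le (A : Subgroup G) (f : G →* G') : (pc A).map f ≤ pc (A.map f) :=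
  le_pc (map_mono (pc_le A)) (map_perfect (pc_perfect A) f)

theorem exists_perfect_lift [Finite G] (f : G →* G') {A : Subgroup G} {B : Subgroup G'}
    (hB : ⁅B, B⁆ = B) (h : B ≤ A.map f) : ∃ L ≤ A, ⁅L, L⁆ = L ∧ L.map f = B := by
  have hne : ({L : Subgroup G | L ≤ A ∧ L.map f = B}).Nonempty := by
    refine ⟨A ⊓ B.comap f, inf_le_left, le_antisymm ?_ ?_⟩
    · exact (map_mono inf_le_right).trans (map_comap_le _ _)
    · intro b hb
      obtain ⟨a, ha, rfl⟩ := h hb
      exact ⟨a, ⟨ha, hb⟩, rfl⟩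
  obtain ⟨L, hL, hmin⟩ := (wellFounded_lt (α := Subgroup G)).has_min _ hne
  refine ⟨L, hL.1, ?_, hL.2⟩
  by_contra hne'
  refine hmin ⁅L, L⁆ ⟨(comm_self_le L).trans hL.1, ?_⟩ (lt_of_le_of_ne (comm_self_le L) hne')
  rw [Subgroup.map_commutator, hL.2, hB]

theorem map_pc [Finite G] (A : Subgroup G) (f : G →* G') : (pc A).map f = pc (A.map f) := by
  refine le_antisymm (map_pc_le A f) ?_
  obtain ⟨L, hL, hp, he⟩ := exists_perfect_lift f (pc_perfect (A.map f)) (pc_le _)
  rw [← he]
  exact map_mono (le_pc hL hp)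

theorem normalizer_le_normalizer_pc [Finite G] (A : Subgroup G) :
    normalizer (A : Set G) ≤ normalizer (pc A : Set G) := by
  intro g hg
  rw [mem_normalizer_iff_conj] at hg ⊢
  rw [map_pc, hg]

theorem isSolvable_of_pc_eq_bot [Finite G] {A : Subgroup G} (h : pc A = ⊥) :
    Group.IsSolvable A := by
  rw [Group.isSolvable_iff_commutator_lt]
  intro H hH
  refine lt_of_le_of_ne (comm_self_le H) fun he => hH ?_
  have h1 : H.map A.subtype ≤ pc A := le_pc (map_subtype_le H) (map_perfect he _)
  rw [h, le_bot_iff] at h1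
  exact (Subgroup.map_eq_bot_iff_of_injective _ A.subtype_injective).1 h1

theorem pc_ne_bot [Finite G] {A : Subgroup G} (h : ¬ Group.IsSolvable A) : pc A ≠ ⊥ :=
  fun he => h (isSolvable_of_pc_eq_bot he)

theorem subnormal_of_le_normalizer {A B : Subgroup G} (hB : B.IsSubnormal) (h : A ≤ B)
    (hn : B ≤ normalizer (A : Set G)) : A.IsSubnormal :=
  IsSubnormal.step A B h hB ((normal_subgroupOf_iff_le_normalizer h).2 hn)

theorem pc_subnormal [Finite G] {A : Subgroup G} (h : A.IsSubnormal) : (pc A).IsSubnormal :=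
  subnormal_of_le_normalizer h (pc_le A) (le_normalizer.trans (normalizer_le_normalizer_pc A))

/-- a perfect subgroup of `H T` with `T` solvable normalizing `H` lies in `H` -/
theorem perfect_le_of_le_sup {K H T : Subgroup G} (hK : ⁅K, K⁆ = K)
    (hT : Group.IsSolvable T) (hn : T ≤ normalizer (H : Set G)) (hle : K ≤ H ⊔ T) : K ≤ H := by
  have hN : (H.subgroupOf (H ⊔ T)).Normal :=
    (normal_subgroupOf_iff_le_normalizer le_sup_left).2 (sup_le Subgroup.le_normalizer hn)
  set f := QuotientGroup.mk' (H.subgroupOf (H ⊔ T)) with hf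
  have h2 : H.subgroupOf (H ⊔ T) ⊔ T.subgroupOf (H ⊔ T) = ⊤ := by
    apply Subgroup.map_injective (H ⊔ T).subtype_injective
    rw [Subgroup.map_sup, subgroupOf_map_subtype, subgroupOf_map_subtype,
      inf_eq_left.2 le_sup_left, inf_eq_left.2 le_sup_right, ← MonoidHom.range_eq_map,
      range_subtype]
  have h3 : (K.subgroupOf (H ⊔ T)).map f ≤ (T.subgroupOf (H ⊔ T)).map f := by
    refine (map_mono (le_top.trans h2.ge)).trans ?_
    rw [Subgroup.map_sup, QuotientGroup.map_mk'_self, bot_sup_eq]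
  have h4 := isSolvable_subgroupOf hT (H ⊔ T)
  have h5 : (K.subgroupOf (H ⊔ T)).map f = ⊥ :=
    eq_bot_of_perfect_of_le_solvable (map_perfect (subgroupOf_perfect hK hle) f) h3
      (isSolvable_map _ f)
  rw [Subgroup.map_eq_bot_iff, QuotientGroup.ker_mk'] at h5
  intro k hk
  exact h5 (show (⟨k, hle hk⟩ : ↥(H ⊔ T)) ∈ K.subgroupOf (H ⊔ T) from hk)

theorem perfect_le_of_subnormal {J H N : Subgroup G} [hN : N.Normal] (hJ : ⁅J, J⁆ = J)
    (hS : Group.IsSolvable N) (hH : H.IsSubnormal) (h : J ≤ H ⊔ N) : J ≤ H := by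
  induction hH with
  | top => exact le_top
  | step H K hle _ hn ih =>
    have h1 : J ≤ K := ih (h.trans (sup_le_sup_right hle _))
    rw [normal_subgroupOf_iff_le_normalizer hle] at hn
    refine perfect_le_of_le_sup hJ (isSolvable_of_le (inf_le_right : K ⊓ N ≤ N) hS)
      (inf_le_left.trans hn) ?_
    rw [← inf_sup_of_le_of_le_normalizer (by rw [normalizer_eq_top]; exact le_top) hle]
    exact le_inf h1 h

/-- a perfect subgroup normalizing `H` with solvable quotient lies in `H` -/
theorem perfect_le_of_quot {J H : Subgroup G} (hJ : ⁅J, J⁆ = J) [(H.subgroupOf J).Normal]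
    (h : Group.IsSolvable (J ⧸ H.subgroupOf J)) : J ≤ H := by
  have h1 : (J.subgroupOf J).map (QuotientGroup.mk' (H.subgroupOf J)) = ⊥ :=
    eq_bot_of_perfect_of_isSolvable (map_perfect (subgroupOf_perfect hJ le_rfl) _) inferInstance
  rw [Subgroup.map_eq_bot_iff, QuotientGroup.ker_mk'] at h1
  intro k hk
  exact h1 (show (⟨k, hk⟩ : J) ∈ J.subgroupOf J from hk)

/-- a non-trivial perfect group all of whose proper subnormal subgroups are solvable -/
structure MinP (L : Subgroup G) : Prop where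
  ne_bot : L ≠ ⊥
  perf : ⁅L, L⁆ = L
  solv : ∀ K, K < L → (K.subgroupOf L).IsSubnormal → Group.IsSolvable K

theorem mem_calC_iff [Finite G] {L : Subgroup G} : L ∈ calC G ↔ L.IsSubnormal ∧ MinP L := by
  constructor
  · rintro ⟨h1, h2, h3, h4⟩
    refine ⟨h3, h1, h2, fun K hK hs => isSolvable_of_pc_eq_bot ?_⟩
    by_contra hne
    exact h4 (pc K) ((pc_le K).trans_lt hK)
      ⟨hne, pc_perfect K, pc_subnormal (hs.trans hK.le h3)⟩
  · rintro ⟨h1, h2⟩
    refine ⟨h2.ne_bot, h2.perf, h1, fun K hK h => h.1 ?_⟩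
    exact eq_bot_of_perfect_of_isSolvable h.2.1 (h2.solv K hK h.2.2.subgroupOf)

namespace MinP

variable {L : Subgroup G}

theorem not_solv (h : MinP L) : ¬ Group.IsSolvable L := fun hs =>
  h.ne_bot (eq_bot_of_perfect_of_isSolvable h.perf hs)

theorem not_le (h : MinP L) {S : Subgroup G} (hS : Group.IsSolvable S) : ¬ L ≤ S := fun hle =>
  h.not_solv (isSolvable_of_le hle hS)

theorem le_or_solv' (h : MinP L) {N : Subgroup G} (hN : (N.subgroupOf L).IsSubnormal) :
    L ≤ N ∨ Group.IsSolvable ↥(N ⊓ L) := by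
  by_cases hle : L ≤ N
  · exact Or.inl hle
  · refine Or.inr (h.solv _ (lt_of_le_of_ne inf_le_right fun he => hle (inf_eq_right.1 he)) ?_)
    rwa [inf_subgroupOf_right]

theorem le_or_solv (h : MinP L) {N : Subgroup G} (hN : L ≤ normalizer (N : Set G)) :
    L ≤ N ∨ Group.IsSolvable ↥(N ⊓ L) :=
  h.le_or_solv' (subnormalIn_of_le_normalizer hN)

theorem map (h : MinP L) (f : G →* G') (hne : L.map f ≠ ⊥) : MinP (L.map f) := by
  refine ⟨hne, map_perfect h.perf f, fun K hK hs => ?_⟩
  have h1 : ((K.comap f).subgroupOf L).IsSubnormal :=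
    subnormalIn_mono (le_comap_map f L) (subnormalIn_comap hs f)
  rcases h.le_or_solv' h1 with h2 | h2
  · exact absurd ((map_mono h2).trans (map_comap_le f K)) (not_le_of_gt hK)
  · refine isSolvable_of_le ?_ (isSolvable_map (K.comap f ⊓ L) f)
    intro k hk
    obtain ⟨a, ha, rfl⟩ := hK.le hk
    exact ⟨a, ⟨hk, ha⟩, rfl⟩

theorem map_ne_bot (h : MinP L) (f : G →* G') (hs : Group.IsSolvable f.ker) : L.map f ≠ ⊥ :=
  fun he => h.not_le hs ((Subgroup.map_eq_bot_iff _).1 he)

theorem map_injective (h : MinP L) {f : G →* G'} (hf : Function.Injective f) : MinP (L.map f) :=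
  h.map f fun he => h.ne_bot ((Subgroup.map_eq_bot_iff_of_injective _ hf).1 he)

theorem of_map_injective {f : G →* G'} (hf : Function.Injective f) (h : MinP (L.map f)) :
    MinP L := by
  refine ⟨fun he => h.ne_bot (by rw [he, Subgroup.map_bot]), ?_, fun K hK hs => ?_⟩
  · apply Subgroup.map_injective hf
    rw [Subgroup.map_commutator, h.perf]
  · have := h.solv (K.map f) (lt_of_le_of_ne (map_mono hK.le) fun he => hK.ne (Subgroup.map_injective hf he)) (subnormalIn_map hK.le hs f)
    exact Group.isSolvable_of_isSolvable_injective (f := f.subgroupMap K)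
      (fun a b hab => Subtype.ext (hf (congrArg Subtype.val hab)))

theorem subgroupOf (h : MinP L) {M : Subgroup G} (hle : L ≤ M) : MinP (L.subgroupOf M) := by
  refine of_map_injective M.subtype_injective ?_
  rwa [subgroupOf_map_subtype, inf_eq_left.2 hle]

theorem of_subgroupOf {M : Subgroup G} (hle : L ≤ M) (h : MinP (L.subgroupOf M)) : MinP L := by
  have := h.map_injective M.subtype_injective
  rwa [subgroupOf_map_subtype, inf_eq_left.2 hle] at this

end MinP

theorem minP_of_isQuasisimple {K : Subgroup G} (h : IsQuasisimple K) : MinP K := by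
  refine ⟨h.ne_bot, h.commutator_self, fun N hN hs => ?_⟩
  rcases h.eq_or_le_centralizer_of_subnormal hN.le hs with h1 | h1
  · exact absurd h1 hN.ne
  · have := isMulCommutative_of_le_centralizer (h1.trans (centralizer_anti hN.le))
    exact isSolvable_of_isMulCommutative N

section calC

variable [Finite G] {L : Subgroup G}

omit [Finite G] in
theorem calC_subnormal (h : L ∈ calC G) : L.IsSubnormal := h.2.2.1

theorem calC_minP (h : L ∈ calC G) : MinP L := (mem_calC_iff.1 h).2

theorem calC_of_isComponent (h : IsComponent L) : L ∈ calC G :=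
  mem_calC_iff.2 ⟨h.isSubnormal, minP_of_isQuasisimple h.isQuasisimple⟩

theorem calC_map [Finite G'] (h : L ∈ calC G) {f : G →* G'} (hf : Function.Surjective f)
    (hne : L.map f ≠ ⊥) : L.map f ∈ calC G' :=
  mem_calC_iff.2 ⟨(calC_subnormal h).map hf, (calC_minP h).map f hne⟩

theorem calC_conj (h : L ∈ calC G) (g : G) : L.map (MulAut.conj g).toMonoidHom ∈ calC G :=
  mem_calC_iff.2 ⟨(calC_subnormal h).map (MulAut.conj g).surjective,
    (calC_minP h).map_injective (MulAut.conj g).injective⟩

theorem calC_eq_pc (h : L ∈ calC G) {N : Subgroup G} [N.Normal] (hN : Group.IsSolvable N) :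
    pc (L ⊔ N) = L :=
  le_antisymm (perfect_le_of_subnormal (pc_perfect _) hN (calC_subnormal h) (pc_le _))
    (le_pc le_sup_left (calC_minP h).perf)

theorem calC_eq_pc_comap (h : L ∈ calC G) (f : G →* G') (hs : Group.IsSolvable f.ker) :
    pc ((L.map f).comap f) = L := by
  rw [comap_map_eq, calC_eq_pc h hs]

theorem calC_map_inj {L₁ L₂ : Subgroup G} (h₁ : L₁ ∈ calC G) (h₂ : L₂ ∈ calC G) (f : G →* G')
    (hs : Group.IsSolvable f.ker) (h : L₁.map f = L₂.map f) : L₁ = L₂ := by
  rw [← calC_eq_pc_comap h₁ f hs, h, calC_eq_pc_comap h₂ f hs]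

theorem normalizer_calC (h : L ∈ calC G) (f : G →* G')
    (hs : Group.IsSolvable f.ker) :
    normalizer (L : Set G) = (normalizer ((L.map f : Subgroup G') : Set G')).comap f := by
  refine le_antisymm (map_le_iff_le_comap.1 (le_normalizer_map f)) ?_
  have := (le_normalizer_comap (H := L.map f) f).trans (normalizer_le_normalizer_pc _)
  rwa [calC_eq_pc_comap h f hs] at this

theorem calC_pc_comap [Finite G'] {M : Subgroup G'} (h : M ∈ calC G') {f : G →* G'}
    (hf : Function.Surjective f) (hs : Group.IsSolvable f.ker) :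
    pc (M.comap f) ∈ calC G ∧ (pc (M.comap f)).map f = M := by
  have hM := calC_minP h
  have h1 : (pc (M.comap f)).map f = M := by
    rw [map_pc, map_comap_eq_self_of_surjective hf]
    exact le_antisymm (pc_le M) (le_pc le_rfl hM.perf)
  have hsn : (pc (M.comap f)).IsSubnormal := pc_subnormal ((calC_subnormal h).comap f)
  refine ⟨mem_calC_iff.2 ⟨hsn, fun he => hM.ne_bot (by rw [← h1, he, Subgroup.map_bot]),
    pc_perfect _, fun K hK hKs => ?_⟩, h1⟩
  have hKsn : K.IsSubnormal := hKs.trans hK.le hsn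
  rcases hM.le_or_solv' (N := K.map f) (hKsn.map hf).subgroupOf with h2 | h2
  · exfalso
    refine not_le_of_gt hK (perfect_le_of_subnormal (pc_perfect _) hs hKsn ?_)
    rw [← comap_map_eq]
    exact (pc_le _).trans (comap_mono h2)
  · have h3 : K.map f ≤ M := h1 ▸ map_mono hK.le
    rw [inf_eq_left.2 h3] at h2
    exact isSolvable_of_map_of_inf_ker K f h2 (isSolvable_of_le inf_le_right hs)

theorem isComponent_of_calC (h : L ∈ calC G)
    (hc : solvableRadical G ⊓ L ≤ centralizer (L : Set G)) : IsComponent L := by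
  have hL := calC_minP h
  refine ⟨calC_subnormal h, isQuasisimple_subgroup_iff.2 ⟨hL.perf, hL.ne_bot, fun N hN hn => ?_⟩⟩
  rcases hL.le_or_solv hn with h1 | h1
  · exact Or.inl (le_antisymm hN h1)
  · rw [inf_eq_left.2 hN] at h1
    exact Or.inr ((le_inf (le_solvableRadical_of_isSubnormal
      (subnormal_of_le_normalizer (calC_subnormal h) hN hn) h1) hN).trans hc)

theorem rad_inf_centralizer_le :
    solvableRadical G ⊓ centralizer (fittingSubgroup G : Set G) ≤ fittingSubgroup G :=
  le_fittingSubgroup_of_le_centralizer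
    (isSolvable_of_le inf_le_left (isSolvable_solvableRadical G)) inf_le_right

theorem isComponent_of_calC_of_centralizes (h : L ∈ calC G)
    (hc : L ≤ centralizer (fittingSubgroup G : Set G)) : IsComponent L :=
  isComponent_of_calC h (((inf_le_inf_left _ hc).trans rad_inf_centralizer_le).trans
    (le_centralizer_comm.1 hc))

theorem ker_rad_solv : Group.IsSolvable (QuotientGroup.mk' (solvableRadical G)).ker := by
  rw [QuotientGroup.ker_mk']
  exact isSolvable_solvableRadical G

theorem isComponent_map_rad (h : L ∈ calC G) :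
    IsComponent (L.map (QuotientGroup.mk' (solvableRadical G))) := by
  refine isComponent_of_calC (calC_map h (QuotientGroup.mk'_surjective _)
    ((calC_minP h).map_ne_bot _ ker_rad_solv)) ?_
  rw [solvableRadical_quotient, bot_inf_eq]
  exact bot_le

theorem comp_inf_centralizer_eq_bot (hR : solvableRadical G = ⊥) {K : Subgroup G}
    (hK : IsComponent K) : K ⊓ centralizer (K : Set G) = ⊥ := by
  refine le_bot_iff.1 (hK.center_le_fitting.trans ?_)
  rw [← hR]
  have := isNilpotent_fittingSubgroup G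
  exact le_solvableRadical inferInstance

theorem calC_commutator_le_rad {L₁ L₂ : Subgroup G} (h₁ : L₁ ∈ calC G) (h₂ : L₂ ∈ calC G)
    (hne : L₁ ≠ L₂) : ⁅L₁, L₂⁆ ≤ solvableRadical G :=
  commutator_le_iff_map_eq_bot.2 ((isComponent_map_rad h₁).commutator_eq_bot_of_ne
    (isComponent_map_rad h₂) fun he => hne (calC_map_inj h₁ h₂ _ ker_rad_solv he))

theorem calC_le_normalizer {L₁ L₂ : Subgroup G} (h₁ : L₁ ∈ calC G) (h₂ : L₂ ∈ calC G) :
    L₁ ≤ normalizer (L₂ : Set G) := by
  rw [normalizer_calC h₂ _ ker_rad_solv]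
  exact map_le_iff_le_comap.1 ((isComponent_map_rad h₁).le_normalizer (isComponent_map_rad h₂))

/-- a `𝒞`-component lies in a subnormal subgroup or centralizes it modulo the solvable radical -/
theorem calC_le_or (h : L ∈ calC G) {N : Subgroup G} (hN : N.IsSubnormal) :
    L ≤ N ∨ ⁅L, N⁆ ≤ solvableRadical G := by
  rcases (isComponent_map_rad h).le_or_commutator_eq_bot
    (hN.map (QuotientGroup.mk'_surjective (solvableRadical G))) with h1 | h1
  · refine Or.inl (perfect_le_of_subnormal (calC_minP h).perf (isSolvable_solvableRadical G) hN ?_)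
    have := (le_comap_map _ L).trans (comap_mono h1)
    rwa [comap_map_eq, QuotientGroup.ker_mk'] at this
  · exact Or.inr (commutator_le_iff_map_eq_bot.2 h1)

theorem sSup_calC_normal : (sSup (calC G)).Normal := by
  refine ⟨fun n hn g => ?_⟩
  have : (sSup (calC G)).map (MulAut.conj g).toMonoidHom ≤ sSup (calC G) := by
    rw [sSup_eq_iSup', Subgroup.map_iSup]
    exact iSup_le fun L => le_iSup_of_le ⟨_, calC_conj L.2 g⟩ le_rfl
  exact this ⟨n, hn, rfl⟩

theorem map_sSup_calC : (sSup (calC G)).map (QuotientGroup.mk' (solvableRadical G)) =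
    layer (G ⧸ solvableRadical G) := by
  refine le_antisymm ?_ (layer_le_iff.2 fun K hK => ?_)
  · rw [sSup_eq_iSup', Subgroup.map_iSup]
    exact iSup_le fun L => (isComponent_map_rad L.2).le_layer
  · obtain ⟨h1, h2⟩ := calC_pc_comap (calC_of_isComponent hK)
      (QuotientGroup.mk'_surjective (solvableRadical G)) ker_rad_solv
    rw [← h2]
    exact map_mono (le_sSup h1)

/-- `𝒞`-components of intermediate subgroups -/
theorem calC_subgroupOf_iff {M : Subgroup G} (hle : L ≤ M) :
    L.subgroupOf M ∈ calC M ↔ (L.subgroupOf M).IsSubnormal ∧ MinP L :=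
  mem_calC_iff.trans (and_congr_right fun _ => ⟨MinP.of_subgroupOf hle, fun h => h.subgroupOf hle⟩)

end calC

end CL.QT
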