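/-
Counting lemmas for automorphisms of an elementary abelian 2-group.
-/
import Mathlib
import Cfsg.Agent.ODD.BG5.Ucn

set_option autoImplicit false

namespace CL.QY

open Subgroup

variable {V : Type*} [Group V]

/-- exponent two -/
def E2 (V : Type*) [Group V] : Prop := ∀ v : V, v * v = 1

theorem E2.inv (h : E2 V) (v : V) : v⁻¹ = v := inv_eq_of_mul_eq_one_left (h v)

theorem E2.cm (h : E2 V) (a b : V) : a * b = b * a := by
  rw [← h.inv (a * b), mul_inv_rev, h.inv, h.inv]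

/-- fixed points -/
def fx (g : MulAut V) : Subgroup V := g.toMonoidHom.eqLocus (MonoidHom.id V)

theorem mem_fx {g : MulAut V} {v : V} : v ∈ fx g ↔ g v = v := Iff.rfl

/-- `v ↦ v · g v` -/
def dl (h : E2 V) (g : MulAut V) : V →* V :=
  MonoidHom.mk' (fun v => v * g v) fun a b => by
    rw [map_mul, mul_assoc, mul_assoc, ← mul_assoc b, h.cm b, mul_assoc]

theorem dl_apply (h : E2 V) (g : MulAut V) (v : V) : dl h g v = v * g v := rfl

theorem ker_dl (h : E2 V) (g : MulAut V) : (dl h g).ker = fx g := by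
  ext v
  rw [MonoidHom.mem_ker, dl_apply, mem_fx, mul_eq_one_iff_eq_inv', h.inv]

/-- `W` is `g`-invariant -/
def Iv (g : MulAut V) (W : Subgroup V) : Prop := ∀ v ∈ W, g v ∈ W

theorem Iv.inf {g : MulAut V} {A B : Subgroup V} (a : Iv g A) (b : Iv g B) : Iv g (A ⊓ B) :=
  fun v hv => ⟨a v hv.1, b v hv.2⟩

theorem Iv.mul {g k : MulAut V} {A : Subgroup V} (a : Iv g A) (b : Iv k A) : Iv (g * k) A :=
  fun v hv => a _ (b v hv)

theorem Iv.pow {g : MulAut V} {A : Subgroup V} (a : Iv g A) (n : ℕ) : Iv (g ^ n) A := by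
  induction n with
  | zero => exact fun v hv => hv
  | succ n ih => rw [pow_succ]; exact ih.mul a

theorem iv_fx {g k : MulAut V} (c : g * k = k * g) : Iv g (fx k) := fun v hv => by
  rw [mem_fx] at hv ⊢
  rw [← MulAut.mul_apply, ← c, MulAut.mul_apply, hv]

/-- `[V, g]` -/
def cm (h : E2 V) (g : MulAut V) : Subgroup V := (dl h g).range

theorem iv_cm (h : E2 V) {g k : MulAut V} (c : g * k = k * g) : Iv g (cm h k) := by
  rintro _ ⟨v, rfl⟩
  exact ⟨g v, by rw [dl_apply, dl_apply, map_mul, ← MulAut.mul_apply, ← c, MulAut.mul_apply]⟩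

theorem iv_cm_inv (h : E2 V) {g k : MulAut V} (c : g * k * g⁻¹ = k⁻¹) : Iv g (cm h k) := by
  rintro _ ⟨v, rfl⟩
  have c' : g * k = k⁻¹ * g := by rw [← c, inv_mul_cancel_right]
  refine ⟨k⁻¹ (g v), ?_⟩
  rw [dl_apply, dl_apply, map_mul, ← MulAut.mul_apply _ k k⁻¹, mul_inv_cancel, MulAut.one_apply,
    ← MulAut.mul_apply _ g k, c', MulAut.mul_apply, h.cm]

theorem fx_pow_mem {g : MulAut V} {v : V} (hv : g v = v) (n : ℕ) : (g ^ n) v = v := by
  induction n with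
  | zero => rfl
  | succ n ih => rw [pow_succ, MulAut.mul_apply, hv, ih]

theorem eq_of_dl_fixed (h : E2 V) {y : MulAut V} {p : ℕ} (hp : Odd p) (hy : y ^ p = 1) {v : V}
    (hv : y (v * y v) = v * y v) : y v = v := by
  have k : ∀ n : ℕ, (y ^ n) v = v * (v * y v) ^ n := fun n => by
    induction n with
    | zero => simp
    | succ n ih =>
      rw [pow_succ', MulAut.mul_apply, ih, map_mul, map_pow, hv, pow_succ', ← mul_assoc,
        ← mul_assoc, h v, one_mul]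
  obtain ⟨m, rfl⟩ := hp
  have := k (2 * m + 1)
  rw [hy, MulAut.one_apply, pow_succ, pow_mul, sq, h, one_pow, one_mul, ← mul_assoc, h v,
    one_mul] at this
  exact this.symm

theorem cm_inf_fx (h : E2 V) {y : MulAut V} {p : ℕ} (hp : Odd p) (hy : y ^ p = 1) :
    cm h y ⊓ fx y = ⊥ := by
  refine eq_bot_iff.2 ?_
  rintro _ ⟨⟨v, rfl⟩, hv⟩
  rw [mem_bot, dl_apply, eq_of_dl_fixed h hp hy hv, h]

theorem cm_ne_bot (h : E2 V) {y : MulAut V} (hy : y ≠ 1) : cm h y ≠ ⊥ := fun e => hy <| by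
  ext v
  have : dl h y v ∈ cm h y := ⟨v, rfl⟩
  rw [e, mem_bot, ← MonoidHom.mem_ker, ker_dl] at this
  exact this

theorem cm_conj (h : E2 V) (g y : MulAut V) :
    cm h (g * y * g⁻¹) = (cm h y).map g.toMonoidHom := by
  ext v
  constructor
  · rintro ⟨w, rfl⟩
    exact ⟨dl h y (g⁻¹ w), ⟨_, rfl⟩, by simp [dl_apply]⟩
  · rintro ⟨_, ⟨w, rfl⟩, rfl⟩
    exact ⟨g w, by simp [dl_apply]⟩

theorem card_dl (h : E2 V) (g : MulAut V) (W : Subgroup V) :
    Nat.card W = Nat.card (W.map (dl h g)) * Nat.card (W ⊓ fx g : Subgroup V) := by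
  rw [← relIndex_ker, ker_dl, mul_comm, ← inf_relIndex_left,
    ← (((W ⊓ fx g).subgroupOf W).card_mul_index),
    Nat.card_congr (subgroupOfEquivOfLe (inf_le_left : W ⊓ fx g ≤ W)).toEquiv]
  rfl

variable [Finite V]

theorem card_mul_le {A B W : Subgroup V} (hA : A ≤ W) (hB : B ≤ W) (h : A ⊓ B = ⊥) :
    Nat.card A * Nat.card B ≤ Nat.card W := by
  rw [← Nat.card_prod]
  refine Nat.card_le_card_of_injective
    (fun x : A × B => (⟨x.1 * x.2, mul_mem (hA x.1.2) (hB x.2.2)⟩ : W)) ?_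
  rintro ⟨a, b⟩ ⟨c, d⟩ e
  have e : (a : V) * b = c * d := congrArg Subtype.val e
  have k : (c : V)⁻¹ * a = d * (b : V)⁻¹ := by
    rw [inv_mul_eq_iff_eq_mul, ← mul_assoc, ← e, mul_inv_cancel_right]
  have m : (c : V)⁻¹ * a ∈ A ⊓ B :=
    mem_inf.2 ⟨A.mul_mem (A.inv_mem c.2) a.2, k ▸ B.mul_mem d.2 (B.inv_mem b.2)⟩
  rw [h, mem_bot] at m
  have h1 : a = c := Subtype.ext (inv_mul_eq_one.1 m).symm
  rw [m, eq_comm, mul_inv_eq_one] at k
  rw [h1, Subtype.ext k]

theorem card_le_mul {A B W : Subgroup V} (h : ∀ w ∈ W, ∃ a ∈ A, ∃ b ∈ B, a * b = w) :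
    Nat.card W ≤ Nat.card A * Nat.card B := by
  rw [← Nat.card_prod]
  choose a ha b hb e using h
  refine Nat.card_le_card_of_injective
    (fun w : W => ((⟨a w w.2, ha w w.2⟩, ⟨b w w.2, hb w w.2⟩) : A × B)) fun w w' k => ?_
  have k1 : a w w.2 = a w' w'.2 := congrArg (fun x : A × B => (x.1 : V)) k
  have k2 : b w w.2 = b w' w'.2 := congrArg (fun x : A × B => (x.2 : V)) k
  exact Subtype.ext (by rw [← e w w.2, ← e w' w'.2, k1, k2])

theorem sq_le (h : E2 V) {a : MulAut V} (ha : a * a = 1) {W : Subgroup V} (i : Iv a W) :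
    Nat.card W ≤ Nat.card (W ⊓ fx a : Subgroup V) ^ 2 := by
  rw [card_dl h a W, sq]
  refine Nat.mul_le_mul_right _ (card_le_of_le ?_)
  rintro _ ⟨v, hv, rfl⟩
  refine ⟨mul_mem hv (i v hv), ?_⟩
  change a (v * a v) = v * a v
  rw [map_mul, ← MulAut.mul_apply, ha, MulAut.one_apply, h.cm]

theorem sq_eq (h : E2 V) {a y : MulAut V} (ha : a * a = 1) (c : a * y * a⁻¹ = y⁻¹)
    {W : Subgroup V} (i : Iv a W) (j : Iv y W) (f : W ⊓ fx y = ⊥) :
    Nat.card W = Nat.card (W ⊓ fx a : Subgroup V) ^ 2 := by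
  have a1 := sq_le h ha i
  have hb : y * a * (y * a) = 1 := by
    rw [inv_eq_of_mul_eq_one_left ha] at c
    rw [mul_assoc, ← mul_assoc a, c, mul_inv_cancel]
  have a2 := sq_le h hb (j.mul i)
  have a3 : Nat.card (W ⊓ fx a : Subgroup V) * Nat.card (W ⊓ fx (y * a) : Subgroup V) ≤
      Nat.card W := by
    refine card_mul_le inf_le_left inf_le_left (eq_bot_iff.2 fun v hv => f.le ⟨hv.1.1, ?_⟩)
    have h1 : a v = v := hv.1.2
    have h2 : y (a v) = v := hv.2.2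
    rwa [h1] at h2
  have a4 : 0 < Nat.card (W ⊓ fx a : Subgroup V) := Nat.card_pos
  have a5 : 0 < Nat.card (W ⊓ fx (y * a) : Subgroup V) := Nat.card_pos
  generalize Nat.card (W ⊓ fx a : Subgroup V) = c at *
  generalize Nat.card (W ⊓ fx (y * a) : Subgroup V) = d at *
  have b1 : d ≤ c := by nlinarith
  have b2 : c ≤ d := by nlinarith
  nlinarith

theorem modeq {p : ℕ} [Fact p.Prime] {y : MulAut V} (hy : y ^ p = 1) {W : Subgroup V}
    (j : Iv y W) (f : W ⊓ fx y = ⊥) : Nat.card W ≡ 1 [MOD p] := by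
  classical
  have := Fintype.ofFinite W
  let φ : Function.End W := fun w => ⟨y w, j w w.2⟩
  have k : ∀ (n : ℕ) (w : W), ((φ ^ n) w : V) = (y ^ n) w := fun n w => by
    induction n with
    | zero => rfl
    | succ n ih => rw [pow_succ', pow_succ', MulAut.mul_apply, ← ih]; rfl
  have e := Equiv.Perm.card_fixedPoints_modEq (f := φ) (p := p) (n := 1)
    (funext fun w => Subtype.ext (by rw [pow_one, k, hy]; rfl))
  rw [← Nat.card_eq_fintype_card, ← Nat.card_eq_fintype_card] at e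
  convert e
  symm
  rw [Nat.card_eq_one_iff_exists]
  refine ⟨⟨1, Subtype.ext (map_one y)⟩, fun w => Subtype.ext (Subtype.ext ?_)⟩
  exact f.le ⟨w.1.2, congrArg Subtype.val w.2⟩

theorem card_pow (h : E2 V) (W : Subgroup V) : ∃ k, Nat.card W = 2 ^ k := by
  have : IsPGroup 2 W := fun w => ⟨1, Subtype.ext (by rw [pow_one, sq]; exact h _)⟩
  exact IsPGroup.iff_card.1 this

theorem card_16 (h : E2 V) {y : MulAut V} (hy : y ^ 5 = 1) {W : Subgroup V}
    (j : Iv y W) (f : W ⊓ fx y = ⊥) (h1 : W ≠ ⊥) (h2 : Nat.card W ≤ 16) : Nat.card W = 16 := by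
  have := Fact.mk Nat.prime_five
  have a := modeq hy j f
  obtain ⟨k, hk⟩ := card_pow h W
  rw [Ne, ← card_eq_one] at h1
  rw [hk] at a h1 h2 ⊢
  have : k ≤ 4 := (Nat.pow_le_pow_iff_right (by norm_num : 1 < 2)).1 h2
  interval_cases k <;> simp_all [Nat.ModEq]

/-- a 5-group acting on a group of order 16 -/
theorem key16 (h : E2 V) {P : Subgroup (MulAut V)} (hP : IsPGroup 5 P) {y : MulAut V} (hyP : y ∈ P)
    (hy : y ^ 5 = 1) (c : ∀ u ∈ P, y * u = u * y) {W : Subgroup V} (j : ∀ u ∈ P, Iv u W)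
    (f : W ⊓ fx y = ⊥) (h2 : Nat.card W = 16) :
    ∃ S ≤ P, S.relIndex P = 5 ∧ y ∉ S ∧ ⁅P, P⁆ ≤ S ∧ ∀ s ∈ S, ∀ w ∈ W, s w = w := by
  have := Fact.mk Nat.prime_five
  obtain ⟨w, hw, hw1⟩ : ∃ w ∈ W, w ≠ 1 := by
    by_contra! k
    rw [(eq_bot_iff_forall _).2 k, card_bot] at h2
    omega
  set S := P ⊓ MulAction.stabilizer (MulAut V) w with hS
  have hy' : y ∉ S := fun k => hw1 (f.le ⟨hw, k.2⟩)
  have i1 : S.relIndex P ≤ 16 := by
    have e : S.subgroupOf P = MulAction.stabilizer P w := by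
      ext u
      simp [hS, mem_subgroupOf, MulAction.mem_stabilizer_iff, Subgroup.smul_def]
    rw [relIndex, e, MulAction.index_stabilizer, ← h2]
    refine Set.ncard_le_ncard (t := (W : Set V)) ?_
    rintro _ ⟨u, rfl⟩
    exact j u u.2 w hw
  have i2 : S.relIndex P = 5 := by
    obtain ⟨k, hk⟩ := hP.index (S.subgroupOf P)
    have i3 : S.relIndex P ≠ 1 := fun e => hy' (relIndex_eq_one.1 e hyP)
    rw [relIndex, hk] at i1 i3 ⊢
    have : k < 2 := (Nat.pow_lt_pow_iff_right (by norm_num : 1 < 5)).1 (by omega)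
    interval_cases k <;> simp_all
  refine ⟨S, inf_le_left, i2, hy', CL.BG.A38.commutator_le_of_relIndex_eq_prime hP inf_le_left i2,
    fun s hs v hv => ?_⟩
  have e := card_16 h hy ((j y hyP).inf (iv_fx (c s hs.1)))
    (eq_bot_iff.2 fun v hv => f.le ⟨hv.1.1, hv.2⟩)
    (fun e => hw1 (e.le (⟨hw, hs.2⟩ : w ∈ W ⊓ fx s))) (h2 ▸ card_le_of_le inf_le_left)
  exact ((eq_of_le_of_card_ge inf_le_left (by omega) : W ⊓ fx s = W).ge hv).2

end CL.QY
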